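import Mathlib
import Cfsg.Agent.Spor.Th.E8B
import Cfsg.Agent.Spor.Th.Main

/-!
# The Thompson group is a subgroup of E₈(3)
-/

set_option autoImplicit false

namespace Cfsg.Agent.Spor.ThE

open Cfsg.Lie Cfsg.Spor Cfsg.Agent.Spor Cfsg.Agent.Spor.NM Cfsg.Agent.Spor.NM.F3x248 Cfsg.Agent.Spor.MTh

/-- The representation of degree 248 on the coordinates of the Lie algebra. -/
noncomputable def rho8 : Th →* GL chevE8.Idx (ZMod 3) :=
  (MulAut.conj ((spec.model e8).elt bR)).toMonoidHom.comp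
    ((Units.mapEquiv (Matrix.reindexAlgEquiv (ZMod 3) (ZMod 3) e8.symm).toMulEquiv).toMonoidHom.comp rho)

theorem mem_of_chk {x : ℕ} (hx : x < 11) {w : List ℕ} (h : chk x w = true) : rho8 (gG x) ∈ chevE8.group (ZMod 3) := by
  rw [chk, band_iff, nbeq_iff] at h
  have hR := (Model.invChk_sound (M := spec.model e8) invR).1
  obtain ⟨g, hg, h1⟩ := run_spec h.1 (spec.ent_mul _ _ hR.1 (lets11 x hx).1)
  rw [h.2, dc, dc, spec.dec_mul e8 hR.1 (lets11 x hx).1, ← spec.coe_elt e8 hR] at h1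
  rw [show rho8 (gG x) = g⁻¹ from eq_inv_of_mul_eq_one_right ?_]
  · exact inv_mem hg
  · rw [rho8, MonoidHom.comp_apply, MonoidHom.comp_apply, MulEquiv.coe_toMonoidHom, MulEquiv.coe_toMonoidHom,
      MulAut.conj_apply, ← mul_assoc, mul_inv_eq_one]
    refine Units.ext (.trans ?_ h1.symm)
    rw [rho_gG x hx, Units.val_mul, Units.val_mul, Units.coe_mapEquiv, Model.g, spec.coe_elt _ (lets11 x hx)]
    rfl

theorem exists_emb : ∃ f : Th →* chevE8.group (ZMod 3), Function.Injective f := by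
  have h : ∀ y, rho8 y ∈ chevE8.group (ZMod 3) := fun y => by
    have h1 : ∀ x < 11, rho8 (gG x) ∈ chevE8.group (ZMod 3) → rho8 (gG (inv0 x)) ∈ chevE8.group (ZMod 3) :=
      fun x hx h => by rw [eq_inv_of_mul_eq_one_right (hinvG x hx), map_inv]; exact inv_mem h
    refine (genLt_le (K := (chevE8.group (ZMod 3)).comap rho8) fun x hx => ?_ : genLt gG 11 ≤ _) (topG.ge trivial)
    have h5 := mem_of_chk (by decide) chk5
    have h7 := mem_of_chk (by decide) chk7
    have h9 := mem_of_chk (by decide) chk9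
    interval_cases x
    exacts [mem_of_chk hx chk0, mem_of_chk hx chk1, mem_of_chk hx chk2, mem_of_chk hx chk3, mem_of_chk hx chk4, h5,
      h1 5 (by decide) h5, h7, h1 7 (by decide) h7, h9, h1 9 (by decide) h9]
  exact ⟨rho8.codRestrict _ h, fun a b e => rho_inj ((Units.mapEquiv _).injective
    ((MulAut.conj _).injective (congrArg Subtype.val e)))⟩

end Cfsg.Agent.Spor.ThE
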